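import Mathlib

/-! Tight frames of 60 vectors with inner products 4, 1, -2 (local structure of srg(77,16,0,4)). -/

set_option autoImplicit false
set_option linter.unusedSectionVars false

namespace Cfsg.Agent.H18.Srg77

open Finset

/-- Gram data of the local frame -/
structure Fr {D : Type*} [Fintype D] (ρ : D → D → ℤ) : Prop where
  card : Fintype.card D = 60
  symm : ∀ a b, ρ a b = ρ b a
  diag : ∀ a, ρ a a = 4
  val : ∀ a b, ρ a b = 4 ∨ ρ a b = 1 ∨ ρ a b = -2
  sum0 : ∀ a, ∑ z, ρ a z = 0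
  gram : ∀ a b, ∑ z, ρ a z * ρ b z = 48 * ρ a b

variable {D : Type*} [Fintype D] [DecidableEq D] {ρ : D → D → ℤ}

theorem eq_zero_of_sum_sq {f : D → ℤ} (h : ∑ z, f z * f z = 0) (z : D) : f z = 0 :=
  mul_self_eq_zero.1 ((sum_eq_zero_iff_of_nonneg (fun i _ => mul_self_nonneg (f i))).1 h z
    (mem_univ z))

theorem Fr.eq4 (h : Fr ρ) {a b : D} (hab : ρ a b = 4) (z : D) : ρ a z = ρ b z := by
  have := eq_zero_of_sum_sq (f := fun z => ρ a z - ρ b z) (by
    have e : ∀ z, (ρ a z - ρ b z) * (ρ a z - ρ b z) =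
        ρ a z * ρ a z - 2 * (ρ a z * ρ b z) + ρ b z * ρ b z := fun z => by ring
    simp only [e, sum_add_distrib, sum_sub_distrib, ← mul_sum, h.gram, h.diag, hab]
    norm_num) z
  linarith

theorem Fr.line (h : Fr ρ) {a b c : D} (hab : ρ a b = -2) (hac : ρ a c = -2) (hbc : ρ b c = -2)
    (z : D) : ρ a z + ρ b z + ρ c z = 0 :=
  eq_zero_of_sum_sq (f := fun z => ρ a z + ρ b z + ρ c z) (by
    have e : ∀ z, (ρ a z + ρ b z + ρ c z) * (ρ a z + ρ b z + ρ c z) =
        ρ a z * ρ a z + ρ b z * ρ b z + ρ c z * ρ c z + 2 * (ρ a z * ρ b z)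
          + 2 * (ρ a z * ρ c z) + 2 * (ρ b z * ρ c z) := fun z => by ring
    simp only [e, sum_add_distrib, ← mul_sum, h.gram, h.diag, hab, hac, hbc]
    norm_num) z

theorem card_filter_eq (p : D → Prop) [DecidablePred p] :
    ((univ.filter p).card : ℤ) = ∑ z, if p z then 1 else 0 := by
  rw [card_filter]; push_cast; rfl

theorem Fr.sum1 (h : Fr ρ) : ∑ _z : D, (1 : ℤ) = 60 := by simp [h.card]

/-- the count of a value -/
theorem Fr.cnt (h : Fr ρ) (a : D) : (univ.filter fun z => ρ a z = 4).card = 4 ∧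
    (univ.filter fun z => ρ a z = 1).card = 32 := by
  have h1 := h.sum1
  have h2 := h.sum0 a
  have h3 := h.gram a a
  rw [h.diag] at h3
  have e4 : ∑ z, (18 : ℤ) * (if ρ a z = 4 then 1 else 0) =
      ∑ z, (ρ a z * ρ a z + ρ a z - 2 * 1) :=
    sum_congr rfl fun z _ => by rcases h.val a z with e | e | e <;> simp [e]
  have e1 : ∑ z, (9 : ℤ) * (if ρ a z = 1 then 1 else 0) =
      ∑ z, (8 * 1 + 2 * ρ a z - ρ a z * ρ a z) :=
    sum_congr rfl fun z _ => by rcases h.val a z with e | e | e <;> simp [e]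
  simp only [sum_add_distrib, sum_sub_distrib, ← mul_sum, h1, h2, h3, ← card_filter_eq] at e4 e1
  omega

theorem Fr.sum4 (h : Fr ρ) (a b : D) :
    ∑ z, (if ρ a z = 4 then 1 else 0) * (ρ b z - ρ a b) = (0 : ℤ) :=
  sum_eq_zero fun z _ => by
    split_ifs with e
    · rw [h.symm b z, ← h.eq4 e b]; simp
    · simp

/-- joint counts -/
theorem Fr.cnt2 (h : Fr ρ) {a b : D} (hab : ρ a b ≠ 4) :
    ((univ.filter fun z => ρ a z = -2 ∧ ρ b z = -2).card : ℤ) * 3 = 28 + 8 * ρ a b ∧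
    (univ.filter fun z => ρ a z = 1 ∧ ρ b z = 1).card = 16 := by
  have h1 := h.sum1
  have h2 := h.sum0 a
  have h2' := h.sum0 b
  have h3 := h.gram a b
  have h4 := h.sum4 a b
  have h4' := h.sum4 b a
  have c1 : ∑ z, (if ρ a z = 4 then (1 : ℤ) else 0) = 4 := by
    rw [← card_filter_eq, (h.cnt a).1]; rfl
  have c2 : ∑ z, (if ρ b z = 4 then (1 : ℤ) else 0) = 4 := by
    rw [← card_filter_eq, (h.cnt b).1]; rfl
  have nb : ∀ z, ρ a z = 4 → ρ b z = 4 → False := fun z e1 e2 =>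
    hab (by rw [h.eq4 e1 b, ← h.eq4 e2 b, h.diag])
  have e2 : ∑ z, (9 : ℤ) * (if ρ a z = -2 ∧ ρ b z = -2 then 1 else 0) =
      ∑ z, (ρ a z * ρ b z - ρ a z - ρ b z + 1
        - 3 * ((if ρ a z = 4 then 1 else 0) * (ρ b z - ρ a b))
        - 3 * (ρ a b - 1) * (if ρ a z = 4 then 1 else 0)
        - 3 * ((if ρ b z = 4 then 1 else 0) * (ρ a z - ρ b a))
        - 3 * (ρ b a - 1) * (if ρ b z = 4 then 1 else 0)) :=
    sum_congr rfl fun z _ => by
      have := nb z
      rcases h.val a z with e | e | e <;> rcases h.val b z with e' | e' | e' <;>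
        first | exact (this e e').elim | (simp [e, e']; done) | (simp [e, e']; ring)
  have e1 : ∑ z, (9 : ℤ) * (if ρ a z = 1 ∧ ρ b z = 1 then 1 else 0) =
      ∑ z, (ρ a z * ρ b z + 2 * ρ a z + 2 * ρ b z + 4 * 1
        - 6 * ((if ρ a z = 4 then 1 else 0) * (ρ b z - ρ a b))
        - 6 * (ρ a b + 2) * (if ρ a z = 4 then 1 else 0)
        - 6 * ((if ρ b z = 4 then 1 else 0) * (ρ a z - ρ b a))
        - 6 * (ρ b a + 2) * (if ρ b z = 4 then 1 else 0)) :=
    sum_congr rfl fun z _ => by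
      have := nb z
      rcases h.val a z with e | e | e <;> rcases h.val b z with e' | e' | e' <;>
        first | exact (this e e').elim | (simp [e, e']; done) | (simp [e, e']; ring)
  simp only [sum_add_distrib, sum_sub_distrib, ← mul_sum, h1, h2, h2', h3, h4, h4', c1, c2,
    ← card_filter_eq] at e2 e1
  rw [h.symm b a] at e1 e2
  omega

/-- common `-2` neighbours -/
def Q (ρ : D → D → ℤ) (w y : D) : Finset D := univ.filter fun a => ρ w a = -2 ∧ ρ y a = -2

/-- the sign vector -/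
def gv (ρ : D → D → ℤ) (w y z : D) : ℤ := 8 * ρ y z + 4 * ρ w z + ∑ a ∈ Q ρ w y, ρ a z

theorem Fr.cardQ (h : Fr ρ) {w y : D} (hy : ρ w y = 1) : (Q ρ w y).card = 12 := by
  have := (h.cnt2 (a := w) (b := y) (by omega)).1
  rw [hy] at this
  unfold Q
  omega

theorem Fr.gv4 (h : Fr ρ) {w y z : D} (hy : ρ w y = 1) (hz : ρ w z = 4) : gv ρ w y z = 0 := by
  have : ∑ a ∈ Q ρ w y, ρ a z = ∑ a ∈ Q ρ w y, (-2 : ℤ) := sum_congr rfl fun a ha => by
    rw [h.symm, ← h.eq4 hz a, (mem_filter.1 ha).2.1]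
  rw [gv, this, sum_const, h.cardQ hy, hz, h.symm y z, ← h.eq4 hz y, hy]
  norm_num

theorem Fr.sum_cls (h : Fr ρ) (S : Finset D) (c : D) (hS : ∀ a, ρ c a = 4 → a ∈ S) :
    ∑ a ∈ S, (if ρ c a = 4 then (1 : ℤ) else 0) = 4 := by
  have c1 : ∑ z, (if ρ c z = 4 then (1 : ℤ) else 0) = 4 := by
    rw [← card_filter_eq, (h.cnt c).1]; rfl
  exact (sum_subset (subset_univ S) fun a _ ha => if_neg fun e => ha (hS a e)).trans c1

theorem Fr.gv2 (h : Fr ρ) {w y z : D} (hy : ρ w y = 1) (hz : ρ w z = -2) : gv ρ w y z = 0 := by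
  have hc := (h.cnt2 (a := w) (b := z) (by omega)).1
  rw [hz] at hc
  obtain ⟨c, hc⟩ := card_pos.1 (show 0 < (univ.filter fun t => ρ w t = -2 ∧ ρ z t = -2).card by
    omega)
  obtain ⟨-, hwc, hzc⟩ := mem_filter.1 hc
  have hl := h.line hz hwc hzc
  have hly := hl y
  have key : ∑ a ∈ Q ρ w y, ρ a z = ∑ a ∈ Q ρ w y, (1 + 3 * (if ρ z a = 4 then (1 : ℤ) else 0)
      - 3 * (if ρ c a = 4 then (1 : ℤ) else 0)) := sum_congr rfl fun a ha => by
    have h1 := hl a
    rw [(mem_filter.1 ha).2.1] at h1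
    rw [h.symm a z]
    rcases h.val z a with e | e | e <;> rcases h.val c a with e' | e' | e' <;>
      omega
  rw [gv, key, sum_sub_distrib, sum_add_distrib, sum_const, h.cardQ hy, ← mul_sum, ← mul_sum, hz,
    h.symm y z]
  rcases h.val z y with e | e | e
  · have := h.eq4 e w
    rw [h.symm z w, h.symm y w] at this
    omega
  · have e' : ρ c y = -2 := by omega
    rw [h.sum_cls (Q ρ w y) c fun a ha => mem_filter.2 ⟨mem_univ _, by
      rw [h.symm w a, ← h.eq4 ha w, h.symm c w, hwc], by rw [h.symm y a, ← h.eq4 ha y, e']⟩,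
      sum_eq_zero (f := fun a => if ρ z a = 4 then (1 : ℤ) else 0) fun a ha => if_neg fun e4 => by
        have := h.eq4 e4 y
        rw [h.symm a y, (mem_filter.1 ha).2.2] at this
        omega, e]
    norm_num
  · have e' : ρ c y = 1 := by omega
    rw [h.sum_cls (Q ρ w y) z fun a ha => mem_filter.2 ⟨mem_univ _, by
      rw [h.symm w a, ← h.eq4 ha w, h.symm z w, hz], by rw [h.symm y a, ← h.eq4 ha y, e]⟩,
      sum_eq_zero (f := fun a => if ρ c a = 4 then (1 : ℤ) else 0) fun a ha => if_neg fun e4 => by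
        have := h.eq4 e4 y
        rw [h.symm a y, (mem_filter.1 ha).2.2] at this
        omega, e]
    norm_num

theorem Fr.gv_rho (h : Fr ρ) (w y u : D) : ∑ z, gv ρ w y z * ρ u z = 48 * gv ρ w y u := by
  simp only [gv, add_mul, sum_add_distrib, mul_assoc, ← mul_sum, h.gram, sum_mul]
  rw [sum_comm]
  simp only [h.gram, ← mul_sum]
  ring

theorem Fr.gv_sum (h : Fr ρ) (w y : D) : ∑ z, gv ρ w y z = 0 := by
  simp only [gv, sum_add_distrib, ← mul_sum, h.sum0]
  rw [sum_comm]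
  simp [h.sum0]

theorem Fr.gv_gram (h : Fr ρ) {w y : D} (hy : ρ w y = 1) (y' : D) :
    ∑ z, gv ρ w y z * gv ρ w y' z = 384 * gv ρ w y y' := by
  have e : ∀ z, gv ρ w y z * gv ρ w y' z = 8 * (gv ρ w y z * ρ y' z) + 4 * (gv ρ w y z * ρ w z)
      + ∑ a ∈ Q ρ w y', gv ρ w y z * ρ a z := fun z => by
    rw [← mul_sum]; nth_rewrite 2 [gv]; ring
  simp only [e, sum_add_distrib, ← mul_sum, h.gv_rho]
  simp only [mul_sum]
  rw [sum_comm]
  simp only [h.gv_rho]
  rw [sum_eq_zero fun a ha => by rw [h.gv2 hy (mem_filter.1 ha).2.1, mul_zero],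
    h.gv4 hy (h.diag w)]
  ring

theorem Fr.gv_diag (h : Fr ρ) {w y : D} (hy : ρ w y = 1) : gv ρ w y y = 12 := by
  have : ∑ a ∈ Q ρ w y, ρ a y = ∑ a ∈ Q ρ w y, (-2 : ℤ) := sum_congr rfl fun a ha => by
    rw [h.symm, (mem_filter.1 ha).2.2]
  rw [gv, this, sum_const, h.cardQ hy, hy, h.diag]
  norm_num

theorem Fr.gv_lin (h : Fr ρ) {w y y' : D} (hy : ρ w y = 1) (hy' : ρ w y' = 1) (s : ℤ) :
    ∑ z, (gv ρ w y z - s * gv ρ w y' z) * (gv ρ w y z - s * gv ρ w y' z) =
      4608 * (1 + s * s) - 768 * s * gv ρ w y y' := by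
  have e : ∀ z, (gv ρ w y z - s * gv ρ w y' z) * (gv ρ w y z - s * gv ρ w y' z) =
      gv ρ w y z * gv ρ w y z - 2 * s * (gv ρ w y z * gv ρ w y' z)
        + s * s * (gv ρ w y' z * gv ρ w y' z) := fun z => by ring
  simp only [e, sum_add_distrib, sum_sub_distrib, ← mul_sum, h.gv_gram hy, h.gv_gram hy',
    h.gv_diag hy, h.gv_diag hy']
  ring

theorem Fr.gv_pm (h : Fr ρ) {w y z : D} (hy : ρ w y = 1) (hz : ρ w z = 1) :
    gv ρ w y z = 12 ∨ gv ρ w y z = -12 := by
  have hle : ∀ t, gv ρ w y t * gv ρ w y t ≤ 144 * (if ρ w t = 1 then 1 else 0) := fun t => by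
    rcases h.val w t with e | e | e
    · simp [h.gv4 hy e, e]
    · have h1 := h.gv_lin hy e 1
      have h2 := h.gv_lin hy e (-1)
      have h1' := sum_nonneg (s := univ) fun z _ => mul_self_nonneg (gv ρ w y z - 1 * gv ρ w t z)
      have h2' := sum_nonneg (s := univ) fun z _ =>
        mul_self_nonneg (gv ρ w y z - (-1) * gv ρ w t z)
      rw [if_pos e]
      nlinarith
    · simp [h.gv2 hy e, e]
  have hs : ∑ t, gv ρ w y t * gv ρ w y t = ∑ t, 144 * (if ρ w t = 1 then (1 : ℤ) else 0) := by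
    rw [h.gv_gram hy, h.gv_diag hy, ← mul_sum, ← card_filter_eq, (h.cnt w).2]; norm_num
  have := (sum_eq_sum_iff_of_le fun t _ => hle t).1 hs z (mem_univ z)
  rw [if_pos hz] at this
  exact mul_self_eq_mul_self_iff.1 (by rw [this]; norm_num)

theorem Fr.same (h : Fr ρ) {w y z z' : D} (hy : ρ w y = 1) (hz : ρ w z = 1) (hz' : ρ w z' = 1)
    (e : gv ρ w y z = gv ρ w y z') : 1 ≤ ρ z z' := by
  have h12 : gv ρ w z z' = 12 := by
    rcases h.gv_pm hy hz with e1 | e1
    · have := eq_zero_of_sum_sq (h.gv_lin hy hz 1 |>.trans (by rw [e1]; norm_num)) z'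
      omega
    · have := eq_zero_of_sum_sq (h.gv_lin hy hz (-1) |>.trans (by rw [e1]; norm_num)) z'
      omega
  have : ∑ a ∈ Q ρ w z, ρ a z' ≤ ∑ a ∈ Q ρ w z, (1 : ℤ) := sum_le_sum fun a ha => by
    rcases h.val a z' with e1 | e1 | e1
    · have := h.eq4 e1 w
      rw [h.symm a w, h.symm z' w, (mem_filter.1 ha).2.1] at this
      omega
    · omega
    · omega
  rw [sum_const, h.cardQ hz] at this
  rw [gv, hz'] at h12
  norm_num at this
  rcases h.val z z' with e1 | e1 | e1 <;> omega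

/-- the two halves -/
def half (ρ : D → D → ℤ) (w y : D) (s : ℤ) : Finset D :=
  univ.filter fun z => ρ w z = 1 ∧ gv ρ w y z = s

theorem Fr.card_half (h : Fr ρ) {w y : D} (hy : ρ w y = 1) :
    (half ρ w y 12).card = 16 ∧ (half ρ w y (-12)).card = 16 := by
  have h1 := h.gv_sum w y
  have h2 : ∑ z, (if ρ w z = 1 then (1 : ℤ) else 0) = 32 := by
    rw [← card_filter_eq, (h.cnt w).2]; rfl
  have e1 : ∑ z, (24 : ℤ) * (if ρ w z = 1 ∧ gv ρ w y z = 12 then 1 else 0) =
      ∑ z, (12 * (if ρ w z = 1 then (1 : ℤ) else 0) + gv ρ w y z) :=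
    sum_congr rfl fun z _ => by
      rcases h.val w z with e | e | e
      · simp [h.gv4 hy e, e]
      · rcases h.gv_pm hy e with e' | e' <;> simp [e, e']
      · simp [h.gv2 hy e, e]
  have e2 : ∑ z, (24 : ℤ) * (if ρ w z = 1 ∧ gv ρ w y z = -12 then 1 else 0) =
      ∑ z, (12 * (if ρ w z = 1 then (1 : ℤ) else 0) - gv ρ w y z) :=
    sum_congr rfl fun z _ => by
      rcases h.val w z with e | e | e
      · simp [h.gv4 hy e, e]
      · rcases h.gv_pm hy e with e' | e' <;> simp [e, e']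
      · simp [h.gv2 hy e, e]
  simp only [sum_add_distrib, sum_sub_distrib, ← mul_sum, h1, h2, ← card_filter_eq] at e1 e2
  unfold half
  omega

theorem Fr.cross (h : Fr ρ) {w y : D} (hy : ρ w y = 1) {s : ℤ} (hs : s = 12 ∨ s = -12) {t : D}
    (ht : t ∈ half ρ w y s) : ((half ρ w y (-s)).filter fun z => 1 ≤ ρ t z).card ≤ 4 := by
  obtain ⟨-, ht1, ht2⟩ := mem_filter.1 ht
  have c1 := (h.cnt t).1
  have c2 := (h.cnt2 (a := w) (b := t) (by omega)).2
  have c3 : (half ρ w y s).card = 16 := by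
    rcases hs with rfl | rfl
    · exact (h.card_half hy).1
    · exact (h.card_half hy).2
  have hsub : half ρ w y s ∪ (half ρ w y (-s)).filter (fun z => 1 ≤ ρ t z) ⊆
      (univ.filter fun z => ρ t z = 4) ∪ (univ.filter fun z => ρ w z = 1 ∧ ρ t z = 1) := by
    intro z hz
    have : ρ w z = 1 ∧ 1 ≤ ρ t z := by
      rcases mem_union.1 hz with hz | hz
      · obtain ⟨-, h1, h2⟩ := mem_filter.1 hz
        exact ⟨h1, h.same hy ht1 h1 (ht2.trans h2.symm)⟩
      · exact ⟨(mem_filter.1 (mem_filter.1 hz).1).2.1, (mem_filter.1 hz).2⟩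
    simp only [mem_union, mem_filter, mem_univ, true_and]
    rcases h.val t z with e | e | e <;> omega
  have h1 := (card_le_card hsub).trans (card_union_le _ _)
  rw [card_union_of_disjoint (disjoint_left.2 fun z h1 h2 => by
    have := (mem_filter.1 h1).2.2
    have := (mem_filter.1 (mem_filter.1 h2).1).2.2
    omega)] at h1
  omega

/-- the sets of 20 vectors with pairwise positive inner products -/
def Good (ρ : D → D → ℤ) (S : Finset D) : Prop := S.card = 20 ∧ ∀ a ∈ S, ∀ b ∈ S, 1 ≤ ρ a b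

theorem Fr.two (h : Fr ρ) (w : D) : ∃ S₁ S₂ : Finset D, S₁ ≠ S₂ ∧
    ∀ S, (Good ρ S ∧ w ∈ S) ↔ (S = S₁ ∨ S = S₂) := by
  obtain ⟨y, hy⟩ := card_pos.1 (show 0 < (univ.filter fun z => ρ w z = 1).card by
    rw [(h.cnt w).2]; norm_num)
  replace hy := (mem_filter.1 hy).2
  let K : Finset D := univ.filter fun z => ρ w z = 4
  have hK : K.card = 4 := (h.cnt w).1
  have hc : ∀ s : ℤ, s = 12 ∨ s = -12 → (half ρ w y s).card = 16 := by
    rintro s (rfl | rfl)
    · exact (h.card_half hy).1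
    · exact (h.card_half hy).2
  have hcard : ∀ s : ℤ, s = 12 ∨ s = -12 → (K ∪ half ρ w y s).card = 20 := fun s hs => by
    rw [card_union_of_disjoint (disjoint_left.2 fun z h1 h2 => by
      have := (mem_filter.1 h1).2
      have := (mem_filter.1 h2).2.1
      omega), hK, hc s hs]
  have hgood : ∀ s : ℤ, s = 12 ∨ s = -12 → Good ρ (K ∪ half ρ w y s) ∧ w ∈ K ∪ half ρ w y s :=
    fun s hs => ⟨⟨hcard s hs, fun a ha b hb => by
      rcases mem_union.1 ha with ha | ha <;> rcases mem_union.1 hb with hb | hb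
      · rw [← h.eq4 (mem_filter.1 ha).2 b, (mem_filter.1 hb).2]; norm_num
      · rw [← h.eq4 (mem_filter.1 ha).2 b, (mem_filter.1 hb).2.1]
      · rw [h.symm, ← h.eq4 (mem_filter.1 hb).2 a, (mem_filter.1 ha).2.1]
      · exact h.same hy (mem_filter.1 ha).2.1 (mem_filter.1 hb).2.1
          ((mem_filter.1 ha).2.2.trans (mem_filter.1 hb).2.2.symm)⟩,
      mem_union_left _ (mem_filter.2 ⟨mem_univ _, h.diag w⟩)⟩
  refine ⟨K ∪ half ρ w y 12, K ∪ half ρ w y (-12), fun e => ?_, fun S => ⟨fun ⟨hS, hw⟩ => ?_, ?_⟩⟩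
  · have : y ∈ K ∪ half ρ w y (-12) :=
      e ▸ mem_union_right _ (mem_filter.2 ⟨mem_univ _, hy, h.gv_diag hy⟩)
    rcases mem_union.1 this with h1 | h1
    · have := (mem_filter.1 h1).2; omega
    · have := (mem_filter.1 h1).2.2
      rw [h.gv_diag hy] at this; omega
  · have hmem : ∀ z ∈ S, z ∈ K ∨ z ∈ half ρ w y 12 ∨ z ∈ half ρ w y (-12) := fun z hz => by
      have := hS.2 w hw z hz
      rcases h.val w z with e | e | e
      · exact Or.inl (mem_filter.2 ⟨mem_univ _, e⟩)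
      · rcases h.gv_pm hy e with e' | e'
        · exact Or.inr (Or.inl (mem_filter.2 ⟨mem_univ _, e, e'⟩))
        · exact Or.inr (Or.inr (mem_filter.2 ⟨mem_univ _, e, e'⟩))
      · omega
    by_cases h1 : ∃ t ∈ S, t ∈ half ρ w y 12
    · by_cases h2 : ∃ t ∈ S, t ∈ half ρ w y (-12)
      · exfalso
        obtain ⟨t, ht, ht'⟩ := h1
        obtain ⟨u, hu, hu'⟩ := h2
        have a1 := h.cross hy (Or.inl rfl) ht'
        have a2 := h.cross hy (Or.inr rfl) hu'
        rw [neg_neg] at a2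
        have hsub : S ⊆ K ∪ ((half ρ w y 12).filter (fun z => 1 ≤ ρ u z) ∪
            (half ρ w y (-12)).filter fun z => 1 ≤ ρ t z) := fun z hz => by
          rcases hmem z hz with e | e | e
          · exact mem_union_left _ e
          · exact mem_union_right _ (mem_union_left _ (mem_filter.2 ⟨e, hS.2 u hu z hz⟩))
          · exact mem_union_right _ (mem_union_right _ (mem_filter.2 ⟨e, hS.2 t ht z hz⟩))
        have b1 := (card_le_card hsub).trans (card_union_le _ _)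
        have b2 := card_union_le ((half ρ w y 12).filter (fun z => 1 ≤ ρ u z))
          ((half ρ w y (-12)).filter fun z => 1 ≤ ρ t z)
        have := hS.1
        omega
      · refine Or.inl (eq_of_subset_of_card_le (fun z hz => ?_) (by
          rw [hcard _ (Or.inl rfl), hS.1]))
        rcases hmem z hz with e | e | e
        · exact mem_union_left _ e
        · exact mem_union_right _ e
        · exact (h2 ⟨z, hz, e⟩).elim
    · refine Or.inr (eq_of_subset_of_card_le (fun z hz => ?_) (by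
        rw [hcard _ (Or.inr rfl), hS.1]))
      rcases hmem z hz with e | e | e
      · exact mem_union_left _ e
      · exact (h1 ⟨z, hz, e⟩).elim
      · exact mem_union_right _ e
  · rintro (rfl | rfl)
    · exact hgood _ (Or.inl rfl)
    · exact hgood _ (Or.inr rfl)

end Cfsg.Agent.H18.Srg77
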