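import Cfsg.Agent.H18.Srg77a
import Cfsg.Agent.H16.HSUnique

/-! A strongly regular graph with parameters (77,16,0,4) is the block graph of an S(3,6,22). -/

set_option autoImplicit false
set_option linter.unusedSectionVars false

namespace Cfsg.Agent.H18.Srg77

open Finset Cfsg.Agent.H16

variable {V : Type*} [Fintype V] [DecidableEq V] {G : SimpleGraph V} [DecidableRel G.Adj]

/-- adjacency indicator -/
def ad (G : SimpleGraph V) [DecidableRel G.Adj] (u v : V) : ℤ := if G.Adj u v then 1 else 0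

theorem ad_symm (u v : V) : ad G u v = ad G v u := by simp [ad, G.adj_comm]

theorem ad_sum (h : G.IsSRGWith 77 16 0 4) (u : V) : ∑ y, ad G u y = 16 := by
  have := srg_deg h u
  rw [SimpleGraph.neighborFinset_eq_filter] at this
  unfold ad
  rw [← card_filter_eq, this]; rfl

theorem ad_mul (u v : V) : ∑ y, ad G u y * ad G v y =
    ((G.neighborFinset u ∩ G.neighborFinset v).card : ℤ) := by
  have : G.neighborFinset u ∩ G.neighborFinset v = univ.filter fun y => G.Adj u y ∧ G.Adj v y := by
    ext; simp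
  rw [this, card_filter_eq]
  exact sum_congr rfl fun y _ => by unfold ad; split_ifs <;> simp_all

theorem ad_sq (h : G.IsSRGWith 77 16 0 4) (u v : V) : ∑ y, ad G u y * ad G v y =
    12 * (if u = v then 1 else 0) - 4 * ad G u v + 4 := by
  rw [ad_mul]
  by_cases e : u = v
  · subst e; simp [srg_deg h, ad]
  · by_cases a : G.Adj u v
    · simp [srg_lam h a, ad, a, e]
    · simp [srg_mu h e a, ad, a, e]

/-- rows of `2 - A` -/
def rv (G : SimpleGraph V) [DecidableRel G.Adj] (u y : V) : ℤ :=
  2 * (if u = y then 1 else 0) - ad G u y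

theorem rv_ad (h : G.IsSRGWith 77 16 0 4) (u v : V) :
    ∑ y, rv G u y * ad G v y = -6 * rv G u v - 4 := by
  simp only [rv, sub_mul, sum_sub_distrib, ad_sq h, mul_assoc, ← mul_sum, ite_mul, one_mul,
    zero_mul, sum_ite_eq, mem_univ, if_true, ad_symm v u]
  ring

/-- the projected vectors -/
def kv (G : SimpleGraph V) [DecidableRel G.Adj] (x w y : V) : ℤ :=
  6 * rv G w y + 3 * ∑ p, ad G x p * ad G w p * rv G p y + 4 * rv G x y + 4

theorem far_mu (h : G.IsSRGWith 77 16 0 4) {x w : V} (hw : w ∈ far G x) :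
    ∑ p, ad G x p * ad G w p = 4 := by
  rw [ad_mul, srg_mu h (mem_far.1 hw).1.symm (mem_far.1 hw).2]; rfl

theorem kv_ad (h : G.IsSRGWith 77 16 0 4) {x w : V} (hw : w ∈ far G x) (v : V) :
    ∑ y, kv G x w y * ad G v y = -6 * kv G x w v := by
  have e : ∑ y, (∑ p, ad G x p * ad G w p * rv G p y) * ad G v y =
      -6 * (∑ p, ad G x p * ad G w p * rv G p v) - 4 * ∑ p, ad G x p * ad G w p := by
    simp only [sum_mul]
    rw [sum_comm]
    simp only [mul_assoc, ← mul_sum, rv_ad h]
    simp only [mul_sum, ← sum_sub_distrib]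
    exact sum_congr rfl fun p _ => by ring
  simp only [kv, add_mul, sum_add_distrib, mul_assoc, ← mul_sum, rv_ad h, ad_sum h]
  simp only [← mul_assoc, e, far_mu h hw]
  ring

theorem kv_rv (h : G.IsSRGWith 77 16 0 4) {x w : V} (hw : w ∈ far G x) (v : V) :
    ∑ y, kv G x w y * rv G v y = 8 * kv G x w v := by
  simp only [rv, mul_sub, sum_sub_distrib, kv_ad h hw, mul_ite, mul_one, mul_zero, sum_ite_eq,
    mem_univ, if_true]
  ring

theorem kv_sum (h : G.IsSRGWith 77 16 0 4) {x w : V} (hw : w ∈ far G x) :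
    ∑ y, kv G x w y = 0 := by
  have h1 : ∑ v, ∑ y, kv G x w y * ad G v y = ∑ v, -6 * kv G x w v :=
    sum_congr rfl fun v _ => kv_ad h hw v
  rw [sum_comm] at h1
  simp only [← mul_sum, fun y v => ad_symm (G := G) v y] at h1
  simp only [ad_sum h, ← sum_mul] at h1
  omega

theorem kv_self (h : G.IsSRGWith 77 16 0 4) {x w : V} (hw : w ∈ far G x) : kv G x w x = 0 := by
  have hw' := mem_far.1 hw
  have e : ∑ p, ad G x p * ad G w p * rv G p x = ∑ p, -(ad G x p * ad G w p) :=
    sum_congr rfl fun p _ => by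
      by_cases a : G.Adj x p
      · simp [rv, ad, a, a.symm, a.ne.symm]
      · simp [ad, a]
  rw [kv, e, sum_neg_distrib, far_mu h hw]
  simp [rv, ad, hw'.1, G.adj_comm w x, hw'.2]

theorem kv_adj (h : G.IsSRGWith 77 16 0 4) {x w q : V} (hw : w ∈ far G x) (hq : G.Adj x q) :
    kv G x w q = 0 := by
  have e : ∑ p, ad G x p * ad G w p * rv G p q = ∑ p, if q = p then 2 * ad G w q else 0 :=
    sum_congr rfl fun p _ => by
      by_cases e : q = p
      · subst e; simp [rv, ad, hq]
      · by_cases a : G.Adj x p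
        · have : ¬ G.Adj p q := fun b => srg_no_triangle h a hq b
          simp [rv, ad, this, e, Ne.symm e]
        · simp [ad, a, e]
  rw [kv, e, sum_ite_eq]
  have e : w ≠ q := fun e => (mem_far.1 hw).2 (e ▸ hq)
  simp [rv, ad, hq, hq.ne, e]

/-- number of common neighbours of three vertices -/
def tri (G : SimpleGraph V) [DecidableRel G.Adj] (x w y : V) : ℤ :=
  ∑ p, ad G x p * ad G w p * ad G y p

theorem tri_nonneg (x w y : V) : 0 ≤ tri G x w y :=
  sum_nonneg fun p _ => by unfold ad; split_ifs <;> norm_num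

theorem kv_far {x w y : V} (hy : y ∈ far G x) :
    kv G x w y = 12 * (if w = y then 1 else 0) - 6 * ad G w y - 3 * tri G x w y + 4 := by
  have hy' := mem_far.1 hy
  have e : ∑ p, ad G x p * ad G w p * rv G p y = ∑ p, -(ad G x p * ad G w p * ad G y p) :=
    sum_congr rfl fun p _ => by
      by_cases a : G.Adj x p
      · have : p ≠ y := fun e => hy'.2 (e ▸ a)
        simp [rv, this, ad_symm p y]
      · simp [ad, a]
  rw [kv, e, sum_neg_distrib, tri]
  simp only [rv, ad, hy'.1.symm, hy'.2, if_false]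
  ring

theorem kv_gram (h : G.IsSRGWith 77 16 0 4) {x w w' : V} (hw : w ∈ far G x) :
    ∑ y, kv G x w y * kv G x w' y = 48 * kv G x w w' := by
  have e : ∀ y, kv G x w y * kv G x w' y = 6 * (kv G x w y * rv G w' y) +
      3 * ∑ p, ad G x p * ad G w' p * (kv G x w y * rv G p y) + 4 * (kv G x w y * rv G x y) +
        4 * kv G x w y := fun y => by
    have : ∑ p, ad G x p * ad G w' p * (kv G x w y * rv G p y) =
        kv G x w y * ∑ p, ad G x p * ad G w' p * rv G p y := by
      rw [mul_sum]; exact sum_congr rfl fun p _ => by ring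
    rw [this]; nth_rewrite 2 [kv]; ring
  simp only [e, sum_add_distrib, ← mul_sum, kv_rv h hw, kv_sum h hw, kv_self h hw]
  rw [sum_comm]
  simp only [← mul_sum, kv_rv h hw]
  rw [sum_eq_zero fun p _ => by
    by_cases a : G.Adj x p
    · rw [kv_adj h hw a]; ring
    · simp [ad, a]]
  ring

theorem sum_far (x : V) (f : V → ℤ) (h0 : f x = 0) (h1 : ∀ q, G.Adj x q → f q = 0) :
    ∑ y : far G x, f y = ∑ y, f y := by
  rw [sum_coe_sort (far G x) f]
  refine sum_subset (subset_univ _) fun y _ hy => ?_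
  rw [mem_far] at hy
  by_cases e : y = x
  · rw [e, h0]
  · exact h1 y (by tauto)

theorem kv_diag (h : G.IsSRGWith 77 16 0 4) {x w : V} (hw : w ∈ far G x) : kv G x w w = 4 := by
  have : tri G x w w = 4 := by
    rw [← far_mu h hw]
    exact sum_congr rfl fun p _ => by unfold ad; split_ifs <;> norm_num
  rw [kv_far hw, this]; simp [ad]

theorem kv_of_adj (h : G.IsSRGWith 77 16 0 4) {x w y : V} (hy : y ∈ far G x) (a : G.Adj w y) :
    kv G x w y = -2 := by
  have : tri G x w y = 0 := sum_eq_zero fun p _ => by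
    unfold ad
    split_ifs with h1 h2 h3 <;> first | exact (srg_no_triangle h a h2 h3).elim | norm_num
  rw [kv_far hy, this]; simp [ad, a, a.ne]

theorem fr (h : G.IsSRGWith 77 16 0 4) (x : V) : Fr fun a b : far G x => kv G x a b where
  card := by have := card_far h x; rw [Fintype.card_coe]; omega
  symm a b := by
    have h1 := kv_gram h (w' := b) a.2
    have h2 := kv_gram h (w' := a) b.2
    simp only [mul_comm (kv G x b _)] at h2
    omega
  diag a := kv_diag h a.2
  val a b := by
    by_cases e : a.1 = b.1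
    · left; rw [e, kv_diag h b.2]
    by_cases ha : G.Adj a b
    · exact Or.inr (Or.inr (kv_of_adj h b.2 ha))
    have h1 := sum_nonneg (s := univ) fun y _ => mul_self_nonneg (kv G x a y + kv G x b y)
    have e' : ∀ y, (kv G x a y + kv G x b y) * (kv G x a y + kv G x b y) =
        kv G x a y * kv G x a y + 2 * (kv G x a y * kv G x b y) + kv G x b y * kv G x b y :=
      fun y => by ring
    simp only [e', sum_add_distrib, ← mul_sum, kv_gram h a.2, kv_gram h b.2, kv_diag h a.2,
      kv_diag h b.2] at h1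
    have h2 := kv_far (w := a.1) b.2
    have h3 := tri_nonneg (G := G) x a b
    simp only [e, ad, ha, if_false] at h2
    omega
  sum0 a := by
    rw [sum_far x (kv G x a) (kv_self h a.2) fun q hq => kv_adj h a.2 hq, kv_sum h a.2]
  gram a b := by
    rw [sum_far x (fun y => kv G x a y * kv G x b y) (by simp [kv_self h a.2])
      fun q hq => by simp [kv_adj h a.2 hq], kv_gram h a.2]

/-- cocliques of size 21 -/
def Co (G : SimpleGraph V) (C : Finset V) : Prop := C.card = 21 ∧ ∀ a ∈ C, ∀ b ∈ C, ¬ G.Adj a b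

theorem hoffman (h : G.IsSRGWith 77 16 0 4) {C : Finset V} (hC : Co G C) {y : V} (hy : y ∉ C) :
    ∑ c ∈ C, ad G y c = 6 := by
  have hI : (univ \ C).card = 56 := by
    rw [card_sdiff_of_subset (subset_univ _), card_univ, h.card, hC.1]
  have h1 := sum_card_inter' (univ \ C) (fun v => G.neighborFinset v) C 16 fun a ha => by
    rw [← srg_deg h a]
    congr 1
    ext v
    simp only [mem_filter, mem_sdiff, mem_univ, true_and, SimpleGraph.mem_neighborFinset]
    exact ⟨fun h => h.2.symm, fun h' => ⟨fun hv => hC.2 a ha v hv h', h'.symm⟩⟩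
  have h2 := sum_choose_two_inter' (univ \ C) (fun v => G.neighborFinset v) C 4
    fun a ha b hb hab => by
      rw [← srg_mu h hab (hC.2 a ha b hb)]
      congr 1
      ext v
      simp only [mem_filter, mem_sdiff, mem_univ, true_and, SimpleGraph.mem_neighborFinset,
        mem_inter]
      exact ⟨fun h => ⟨h.2.1.symm, h.2.2.symm⟩,
        fun h' => ⟨fun hv => hC.2 a ha v hv h'.1, h'.1.symm, h'.2.symm⟩⟩
  have := const_of_moments _ _ 6 (by rw [h1, hI, hC.1]) (by rw [h2, hI, hC.1]; rfl) y
    (mem_sdiff.2 ⟨mem_univ _, hy⟩)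
  have e : G.neighborFinset y ∩ C = C.filter fun c => G.Adj y c := by
    ext; simp [and_comm]
  rw [e, card_filter] at this
  unfold ad
  exact_mod_cast this

theorem co_sum (h : G.IsSRGWith 77 16 0 4) {C : Finset V} (hC : Co G C) {x w : V} (hx : x ∈ C)
    (hw : w ∈ C) (hwx : w ∈ far G x) : ∑ y ∈ C, kv G x w y = 32 := by
  have r1 : ∀ u ∈ C, ∑ y ∈ C, rv G u y = 2 := fun u hu => by
    simp only [rv, sum_sub_distrib, ← mul_sum, sum_ite_eq, hu, if_true]
    rw [sum_eq_zero fun y hy => by simp [ad, hC.2 u hu y hy]]; rfl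
  have r2 : ∀ u ∉ C, ∑ y ∈ C, rv G u y = -6 := fun u hu => by
    simp only [rv, sum_sub_distrib, ← mul_sum, sum_ite_eq, hu, if_false, hoffman h hC hu]; rfl
  simp only [kv, sum_add_distrib, ← mul_sum, r1 x hx, r1 w hw, sum_const, hC.1]
  rw [sum_comm]
  have : ∑ p, ∑ y ∈ C, ad G x p * ad G w p * rv G p y = ∑ p, -6 * (ad G x p * ad G w p) :=
    sum_congr rfl fun p _ => by
      rw [← mul_sum]
      by_cases a : G.Adj x p
      · rw [r2 p fun hp => hC.2 x hx p hp a]; ring
      · simp [ad, a]
  rw [this, ← mul_sum, far_mu h hwx]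
  rfl

theorem co_good (h : G.IsSRGWith 77 16 0 4) {C : Finset V} (hC : Co G C) {x : V} (hx : x ∈ C) :
    Good (fun a b : far G x => kv G x a b) (univ.filter fun a => a.1 ∈ C) ∧
      C = insert x ((univ.filter fun a : far G x => a.1 ∈ C).map (Function.Embedding.subtype _)) := by
  set S := univ.filter fun a : far G x => a.1 ∈ C with hS
  have e : C = insert x (S.map (Function.Embedding.subtype _)) := by
    ext v
    simp only [hS, mem_insert, mem_map, mem_filter, mem_univ, true_and,
      Function.Embedding.coe_subtype]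
    constructor
    · intro hv
      by_cases e : v = x
      · exact Or.inl e
      · exact Or.inr ⟨⟨v, mem_far.2 ⟨e, hC.2 x hx v hv⟩⟩, hv, rfl⟩
    · rintro (rfl | ⟨a, ha, rfl⟩)
      · exact hx
      · exact ha
  have hnx : x ∉ S.map (Function.Embedding.subtype _) := fun hm => by
    obtain ⟨a, -, ha⟩ := mem_map.1 hm
    exact (mem_far.1 a.2).1 ha
  have hc : S.card = 20 := by
    have := hC.1
    rw [e, card_insert_of_notMem hnx, card_map] at this
    omega
  refine ⟨⟨hc, fun a ha b hb => ?_⟩, e⟩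
  have F := fr h x
  have h1 := co_sum h hC hx (mem_filter.1 ha).2 a.2
  rw [e, sum_insert hnx, kv_self h a.2, sum_map, zero_add] at h1
  have h4 := (F.cnt a).1
  have h2 : ∑ z ∈ S, (if kv G x a z = 4 then (1 : ℤ) else 0) ≤ 4 := by
    refine le_trans (sum_le_sum_of_subset_of_nonneg (subset_univ S) fun z _ _ => by
      split_ifs <;> norm_num) ?_
    rw [← card_filter_eq, h4]; rfl
  have h3 : ∑ z ∈ S, (3 : ℤ) * (if kv G x a z = -2 then 1 else 0) =
      ∑ z ∈ S, (1 + 3 * (if kv G x a z = 4 then (1 : ℤ) else 0) - kv G x a z) :=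
    sum_congr rfl fun z _ => by rcases F.val a z with e | e | e <;> simp [e]
  simp only [sum_add_distrib, sum_sub_distrib, ← mul_sum, sum_const, hc] at h3
  have h5 : ∑ z ∈ S, (if kv G x a z = -2 then (1 : ℤ) else 0) = 0 :=
    le_antisymm (by
      change ∑ z ∈ S, kv G x a z = 32 at h1
      rw [h1, nsmul_eq_mul] at h3
      push_cast at h3
      omega) (sum_nonneg fun z _ => by split_ifs <;> norm_num)
  have h6 := (sum_eq_zero_iff_of_nonneg fun z _ => by split_ifs <;> norm_num).1 h5 b hb
  show 1 ≤ kv G x a b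
  rcases F.val a b with e | e | e
  · omega
  · omega
  · simp [e] at h6

theorem good_co (h : G.IsSRGWith 77 16 0 4) {x : V} {S : Finset (far G x)}
    (hS : Good (fun a b : far G x => kv G x a b) S) :
    Co G (insert x (S.map (Function.Embedding.subtype _))) := by
  have hnx : x ∉ S.map (Function.Embedding.subtype _) := fun hm => by
    obtain ⟨a, -, ha⟩ := mem_map.1 hm
    exact (mem_far.1 a.2).1 ha
  refine ⟨by rw [card_insert_of_notMem hnx, card_map, hS.1], fun a ha b hb hab => ?_⟩
  rcases mem_insert.1 ha with rfl | ha' <;> rcases mem_insert.1 hb with rfl | hb'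
  · exact hab.ne rfl
  · obtain ⟨b, -, rfl⟩ := mem_map.1 hb'
    exact (mem_far.1 b.2).2 hab
  · obtain ⟨a, -, rfl⟩ := mem_map.1 ha'
    exact (mem_far.1 a.2).2 hab.symm
  · obtain ⟨a, ha2, rfl⟩ := mem_map.1 ha'
    obtain ⟨b, hb2, rfl⟩ := mem_map.1 hb'
    have h1 := hS.2 a ha2 b hb2
    have h2 := kv_of_adj h b.2 hab
    change 1 ≤ kv G x a b at h1
    change kv G x a b = -2 at h2
    omega

open Classical in
theorem two_co (h : G.IsSRGWith 77 16 0 4) {x w : V} (hw : w ∈ far G x) :
    (univ.filter fun C : Finset V => Co G C ∧ x ∈ C ∧ w ∈ C).card = 2 := by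
  obtain ⟨S₁, S₂, hne, hS⟩ := (fr h x).two ⟨w, hw⟩
  let f : Finset (far G x) → Finset V := fun S => insert x (S.map (Function.Embedding.subtype _))
  have hf : ∀ S (a : far G x), a.1 ∈ f S ↔ a ∈ S := fun S a => by
    simp only [f, mem_insert, (mem_far.1 a.2).1, false_or]
    exact mem_map' _
  refine card_eq_two.2 ⟨f S₁, f S₂, fun e => hne ?_, ?_⟩
  · ext a; rw [← hf, e, hf]
  ext C
  simp only [mem_filter, mem_univ, true_and, mem_insert, mem_singleton]
  constructor
  · rintro ⟨hC, hx, hwC⟩
    obtain ⟨h1, h2⟩ := co_good h hC hx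
    rcases (hS _).1 ⟨h1, mem_filter.2 ⟨mem_univ _, hwC⟩⟩ with e | e
    · left; rw [h2, e]
    · right; rw [h2, e]
  · rintro (rfl | rfl)
    · have := (hS _).2 (Or.inl rfl)
      exact ⟨good_co h this.1, mem_insert_self _ _, (hf _ ⟨w, hw⟩).2 this.2⟩
    · have := (hS _).2 (Or.inr rfl)
      exact ⟨good_co h this.1, mem_insert_self _ _, (hf _ ⟨w, hw⟩).2 this.2⟩

end Cfsg.Agent.H18.Srg77
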