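import Cfsg.Agent.H18.Srg77b
import Cfsg.Agent.S0410

/-! Uniqueness of the strongly regular graph with parameters (77,16,0,4). -/

set_option autoImplicit false
set_option linter.unusedSectionVars false

namespace Cfsg.Agent.H18.Srg77

open Finset Cfsg.Agent.H16

variable {V : Type*} [Fintype V] [DecidableEq V] {G : SimpleGraph V} [DecidableRel G.Adj]

open Classical in
/-- the cocliques through a vertex -/
noncomputable def blk (G : SimpleGraph V) (v : V) : Finset {C : Finset V // Co G C} :=
  univ.filter fun C => v ∈ C.1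

theorem mem_blk' {v : V} {C : {C : Finset V // Co G C}} : C ∈ blk G v ↔ v ∈ C.1 := by simp [blk]

open Classical in
theorem blk_inter (h : G.IsSRGWith 77 16 0 4) {x w : V} (hne : x ≠ w) :
    (blk G x ∩ blk G w).card = if G.Adj x w then 0 else 2 := by
  split_ifs with a
  · rw [card_eq_zero, eq_empty_iff_forall_notMem]
    intro C hC
    rw [mem_inter, mem_blk', mem_blk'] at hC
    exact C.2.2 x hC.1 w hC.2 a
  · rw [← two_co h (mem_far.2 ⟨hne.symm, a⟩), ← card_map (Function.Embedding.subtype _)]
    congr 1
    ext C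
    simp only [mem_map, mem_inter, mem_blk', Function.Embedding.coe_subtype, mem_filter, mem_univ,
      true_and]
    exact ⟨by rintro ⟨C, h, rfl⟩; exact ⟨C.2, h⟩, fun h => ⟨⟨C, h.1⟩, h.2, rfl⟩⟩

open Classical in
theorem card_blk (h : G.IsSRGWith 77 16 0 4) (x : V) : (blk G x).card = 6 := by
  have h1 := sum_card_inter' (blk G x) (fun C => C.1) (far G x) 2 fun a ha => by
    have := blk_inter h (mem_far.1 ha).1.symm
    rw [if_neg (mem_far.1 ha).2] at this
    rw [← this]
    congr 1
    ext C
    simp [mem_blk']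
  have h2 := card_far h x
  rw [sum_congr rfl (g := fun _ => 20) fun C hC => by
    have e : C.1 ∩ far G x = C.1.erase x := by
      ext v
      simp only [mem_inter, mem_far, mem_erase]
      exact ⟨fun h => ⟨h.2.1, h.1⟩, fun h => ⟨h.2, h.1, C.2.2 x (mem_blk'.1 hC) v h.2⟩⟩
    rw [e, card_erase_of_mem (mem_blk'.1 hC), C.2.1], sum_const, smul_eq_mul] at h1
  omega

open Classical in
theorem card_pts (h : G.IsSRGWith 77 16 0 4) : Fintype.card {C : Finset V // Co G C} = 22 := by
  have h1 := sum_card_inter' (univ : Finset {C : Finset V // Co G C}) (fun C => C.1) univ 6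
    fun a _ => card_blk h a
  rw [sum_congr rfl (g := fun _ => 21) fun C _ => by rw [inter_univ, C.2.1], sum_const,
    smul_eq_mul, card_univ, card_univ, h.card] at h1
  omega

open Classical in
theorem steiner (h : G.IsSRGWith 77 16 0 4) :
    IsSteinerSystem 3 6 (blk G '' (univ : Finset V)) :=
  steiner_of_family (card_pts h) _ (by rw [card_univ, h.card]) _ (fun x _ => card_blk h x)
    fun x _ y _ hxy => by rw [blk_inter h hxy]; split_ifs <;> norm_num

open Classical in
theorem iso_block (h : G.IsSRGWith 77 16 0 4) :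
    Nonempty (G ≃g blockGraph (blk G '' (univ : Finset V))) := by
  let f : V → (blk G '' (univ : Finset V)) := fun v => ⟨blk G v, v, by simp, rfl⟩
  have hinj : Function.Injective f := fun x y hxy => by
    by_contra hne
    have h1 := blk_inter h hne
    rw [show blk G x = blk G y from congrArg Subtype.val hxy, inter_self, card_blk h] at h1
    split_ifs at h1 <;> omega
  have hsurj : Function.Surjective f := by
    rintro ⟨_, x, -, rfl⟩
    exact ⟨x, rfl⟩
  refine ⟨⟨Equiv.ofBijective f ⟨hinj, hsurj⟩, fun {x y} => ?_⟩⟩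
  change (blockGraph _).Adj (f x) (f y) ↔ _
  rw [blockGraph_adj (steiner h), disjoint_iff_inter_eq_empty, ← card_eq_zero]
  by_cases e : x = y
  · subst e
    simp [f, card_blk h]
  · change (blk G x ∩ blk G y).card = 0 ↔ _
    rw [blk_inter h e]
    split_ifs with a <;> simp [a]

theorem main {V W : Type*} [Fintype V] [Fintype W] {G : SimpleGraph V} {H : SimpleGraph W}
    [DecidableRel G.Adj] [DecidableRel H.Adj] (hG : G.IsSRGWith 77 16 0 4)
    (hH : H.IsSRGWith 77 16 0 4) : Nonempty (G ≃g H) := by
  classical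
  obtain ⟨φ⟩ := iso_block hG
  obtain ⟨ψ⟩ := iso_block hH
  obtain ⟨e, he⟩ := iff_of_setSystemIso (S0410.result (card_pts hG) (card_pts hH)
    (steiner hG) (steiner hH))
  exact ⟨(φ.trans (bgIso e he)).trans ψ.symm⟩

end Cfsg.Agent.H18.Srg77
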